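import Cfsg.Agent.PrimitivePairTwo.Stable
import Cfsg.Agent.Components.CharP
import Cfsg.Agent.Components.PLayerBalance

/-!
A primitive pair of characteristic `p` has a member with nonabelian Sylow `2`-subgroups.
-/

set_option autoImplicit false
set_option linter.style.haveILetI false

namespace CfsgLib.PrimitivePairTwo

open Subgroup CfsgLib.Components

universe u

variable {G : Type u} [Group G]

/-- `Y` is an abelian normal subgroup of `Q` centralised by the elements of `Q` acting quadratically on it. -/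
def Good (Q Y : Subgroup G) : Prop :=
  Y ≤ Q ∧ Q ≤ normalizer (Y : Set G) ∧ Y ≤ centralizer (Y : Set G) ∧
    ∀ x ∈ Q, ⁅⁅Y, zpowers x⁆, zpowers x⁆ = ⊥ → x ∈ centralizer (Y : Set G)

/-- The join of the good subgroups of `Q`. -/
def top (Q : Subgroup G) : Subgroup G := sSup {Y | Good Q Y}

theorem quadratic_mono {Y Z : Subgroup G} {x : G} (h : Y ≤ Z)
    (hq : ⁅⁅Z, zpowers x⁆, zpowers x⁆ = ⊥) : ⁅⁅Y, zpowers x⁆, zpowers x⁆ = ⊥ :=
  le_bot_iff.1 (hq ▸ commutator_mono (commutator_mono h le_rfl) le_rfl)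

theorem good_commute {Q Y Z : Subgroup G} (hY : Good Q Y) (hZ : Good Q Z) : Z ≤ centralizer (Y : Set G) := by
  intro x hx
  refine hY.2.2.2 x (hZ.1 hx) (le_bot_iff.1 ?_)
  have h1 : ⁅Y, zpowers x⁆ ≤ Z := commutator_le.2 fun a ha b hb => by
    have hb' : b ∈ Z := zpowers_le.2 hx hb
    rw [commutatorElement_def]
    exact mul_mem ((mem_normalizer_iff.1 (hZ.2.1 (hY.1 ha)) b).1 hb') (inv_mem hb')
  exact (commutator_mono h1 (zpowers_le.2 hx)).trans (commutator_eq_bot_iff_le_centralizer.2 hZ.2.2.1).le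

theorem top_le_centralizer_of_le {Q : Subgroup G} {S : Set G}
    (h : ∀ Y, Good Q Y → Y ≤ centralizer S) : top Q ≤ centralizer S := sSup_le h

variable [Finite G]

theorem le_normalizer_top {Q : Subgroup G} {m : G} (hm : m ∈ normalizer (Q : Set G)) :
    m ∈ normalizer (top Q : Set G) := by
  refine mem_normalizer_fintype fun x hx => ?_
  have key : top Q ≤ (top Q).comap (MulAut.conj m).toMonoidHom := sSup_le fun Y hY => by
    refine map_le_iff_le_comap.1 (le_sSup ?_)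
    set f := (MulAut.conj m).toMonoidHom with hf
    have hfQ : Q.map f = Q := by
      refine eq_of_le_of_card_ge ?_ (card_map_of_injective (MulAut.conj m).injective).ge
      rintro _ ⟨q, hq, rfl⟩
      exact (mem_normalizer_iff.1 hm q).1 hq
    refine ⟨hfQ ▸ map_mono hY.1, ?_, ?_, ?_⟩
    · calc Q = Q.map f := hfQ.symm
        _ ≤ (normalizer (Y : Set G)).map f := map_mono hY.2.1
        _ ≤ _ := le_normalizer_map f
    · refine commutator_eq_bot_iff_le_centralizer.1 ?_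
      rw [← map_commutator, commutator_eq_bot_iff_le_centralizer.2 hY.2.2.1, Subgroup.map_bot]
    · intro z hz hq
      obtain ⟨q, hq', rfl⟩ := hfQ.ge hz
      rw [← MonoidHom.map_zpowers, ← map_commutator, ← map_commutator,
        map_eq_bot_iff_of_injective _ (MulAut.conj m).injective] at hq
      have := hY.2.2.2 q hq' hq
      rintro _ ⟨y, hy, rfl⟩
      rw [← map_mul, ← map_mul, mem_centralizer_iff.1 this y hy]
  exact key hx

theorem good_top (Q : Subgroup G) : Good Q (top Q) := by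
  refine ⟨sSup_le fun _ h => h.1, fun m hm => le_normalizer_top (le_normalizer hm), ?_, ?_⟩
  · exact sSup_le fun Z hZ => le_centralizer_iff.1 (sSup_le fun Y hY => good_commute hZ hY)
  · intro x hx hq
    have : top Q ≤ centralizer ({x} : Set G) := sSup_le fun Y hY y hy =>
      mem_centralizer_singleton_iff.2
        (mem_centralizer_iff.1 (hY.2.2.2 x hx (quadratic_mono (le_sSup hY) hq)) y hy)
    exact mem_centralizer_iff.2 fun y hy => mem_centralizer_singleton_iff.1 (this hy)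

theorem quadratic_subgroupOf {M Y : Subgroup G} (hY : Y ≤ M) (x : ↥M) :
    ⁅⁅Y.subgroupOf M, zpowers x⁆, zpowers x⁆ = ⊥ ↔ ⁅⁅Y, zpowers (x : G)⁆, zpowers (x : G)⁆ = ⊥ := by
  rw [← map_eq_bot_iff_of_injective _ M.subtype_injective, map_commutator, map_commutator,
    MonoidHom.map_zpowers, subgroupOf_map_subtype, inf_eq_left.2 hY]
  rfl

theorem le_centralizer_subgroupOf {M Y : Subgroup G} {x : ↥M}
    (h : (x : G) ∈ centralizer (Y : Set G)) : x ∈ centralizer (Y.subgroupOf M : Set ↥M) :=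
  mem_centralizer_iff.2 fun y hy => Subtype.ext (mem_centralizer_iff.1 h y hy)

section

variable {p : ℕ} [Fact p.Prime]

theorem abelian_le_pCoreIn (hp2 : p ≠ 2) {M Y : Subgroup G}
    (hns : ¬ Cfsg.Involves (Matrix.SpecialLinearGroup (Fin 2) (ZMod p)) ↥M)
    (hc : centralizer (Cfsg.pCore p ↥M : Set ↥M) ≤ Cfsg.pCore p ↥M) (hY : Y ≤ M)
    (hab : Y ≤ centralizer (Y : Set G)) (hn : pCoreIn p M ≤ normalizer (Y : Set G)) : Y ≤ pCoreIn p M := by
  have h := abelian_le_pCore hp2 hns hc (Y.subgroupOf M) (fun x hx => le_centralizer_subgroupOf (hab hx))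
    fun x hx => mem_normalizer_iff.2 fun y => mem_normalizer_iff.1 (hn ⟨x, hx, rfl⟩) (y : G)
  intro y hy
  exact ⟨⟨y, hY hy⟩, h (show (⟨y, hY hy⟩ : ↥M) ∈ Y.subgroupOf M from hy), rfl⟩

theorem pCoreIn_ne_bot {M : Subgroup G} (hM : M ≠ ⊥)
    (hc : centralizer (Cfsg.pCore p ↥M : Set ↥M) ≤ Cfsg.pCore p ↥M) : pCoreIn p M ≠ ⊥ := by
  intro h
  have h0 : Cfsg.pCore p ↥M = ⊥ := (map_eq_bot_iff_of_injective _ M.subtype_injective).1 h
  rw [h0] at hc
  refine hM (eq_bot_iff.2 fun m hm => ?_)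
  have : (⟨m, hm⟩ : ↥M) ∈ (⊥ : Subgroup ↥M) := hc (mem_centralizer_iff.2 fun y hy => by
    rw [SetLike.mem_coe, mem_bot] at hy
    rw [hy, one_mul, mul_one])
  rw [mem_bot] at this
  exact congrArg Subtype.val this

/-- One direction: the good parts of `O_p(M)` and of the join of the two cores agree. -/
theorem top_eq (hp2 : p ≠ 2) {M N : Subgroup G}
    (hnsM : ¬ Cfsg.Involves (Matrix.SpecialLinearGroup (Fin 2) (ZMod p)) ↥M)
    (hnsN : ¬ Cfsg.Involves (Matrix.SpecialLinearGroup (Fin 2) (ZMod p)) ↥N)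
    (hcM : centralizer (Cfsg.pCore p ↥M : Set ↥M) ≤ Cfsg.pCore p ↥M)
    (hcN : centralizer (Cfsg.pCore p ↥N : Set ↥N) ≤ Cfsg.pCore p ↥N) (hN : N ≠ ⊥)
    (h1 : pCoreIn p M ≤ N) (h2 : pCoreIn p N ≤ M)
    (hP : ∀ A : Subgroup G, A ≠ ⊥ → A ≤ M ⊓ N → N ≤ normalizer (A : Set G) →
      M ⊓ normalizer (A : Set G) ≤ N) :
    top (pCoreIn p M) = top (pCoreIn p M ⊔ pCoreIn p N) := by
  set Q := pCoreIn p M with hQ
  set Q' := pCoreIn p N with hQ'
  have hMQ : M ≤ normalizer (Q : Set G) := le_normalizer.trans (normalizer_le_normalizer_pCoreIn p M)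
  have hNQ' : N ≤ normalizer (Q' : Set G) := le_normalizer.trans (normalizer_le_normalizer_pCoreIn p N)
  have hQM : Q ≤ M := pCoreIn_le p M
  have hsupM : Q ⊔ Q' ≤ M := sup_le hQM h2
  refine le_antisymm (le_sSup ?_) (le_sSup ?_)
  · obtain ⟨hFQ, hFn, hFab, hFq⟩ := good_top Q
    set F := top Q with hF
    have hMF : M ≤ normalizer (F : Set G) := fun m hm => le_normalizer_top (hMQ hm)
    have hFM : F ≤ M := hFQ.trans hQM
    refine ⟨hFQ.trans le_sup_left, hsupM.trans hMF, hFab, fun x hx hq => hFq x ?_ hq⟩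
    -- a rigid normal subgroup of `N` in `F`
    haveI : Nontrivial ↥N := (Subgroup.nontrivial_iff_ne_bot _).2 hN
    obtain ⟨X₀, hX0, hXn, hXQ, hXab, hXq⟩ := exists_rigid hp2 hnsN hcN
    set X := X₀.map N.subtype with hX
    have hXN : X ≤ N := map_subtype_le _
    have hNX : N ≤ normalizer (X : Set G) := by
      intro n hn
      refine mem_normalizer_fintype ?_
      rintro _ ⟨y, hy, rfl⟩
      exact ⟨⟨n, hn⟩ * y * ⟨n, hn⟩⁻¹, hXn.conj_mem y hy _, rfl⟩
    have hXab' : X ≤ centralizer (X : Set G) := by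
      rintro _ ⟨y, hy, rfl⟩
      rintro _ ⟨z, hz, rfl⟩
      rw [← map_mul, ← map_mul, mem_centralizer_iff.1 (hXab hy) z hz]
    have hXQ' : X ≤ Q' := map_mono hXQ
    have hXQ1 : X ≤ Q := abelian_le_pCoreIn hp2 hnsM hcM (hXQ'.trans h2) hXab' (h1.trans hNX)
    have hXgood : Good Q X := by
      refine ⟨hXQ1, h1.trans hNX, hXab', fun y hy hyq => ?_⟩
      have hy' : (⟨y, h1 hy⟩ : ↥N) ∈ centralizer (X₀ : Set ↥N) := hXq _ (by
        have := (quadratic_subgroupOf hXN ⟨y, h1 hy⟩).2 hyq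
        rwa [hX, subgroupOf, comap_map_eq_self_of_injective N.subtype_injective] at this)
      rintro _ ⟨z, hz, rfl⟩
      exact congrArg Subtype.val (mem_centralizer_iff.1 hy' z hz)
    have hXne : X ≠ ⊥ := fun h => hX0 ((map_eq_bot_iff_of_injective _ N.subtype_injective).1 h)
    have hC : M ⊓ centralizer (F : Set G) ≤ N := fun c hc =>
      hP X hXne (le_inf (hXQ1.trans hQM) hXN) hNX
        ⟨hc.1, centralizer_le_normalizer _ (centralizer_le (SetLike.coe_subset_coe.2 (show X ≤ F from le_sSup hXgood)) hc.2)⟩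
    -- `C(F) ∩ Q'` lies in `Q`
    set C := M ⊓ centralizer (F : Set G) with hCdef
    have hMC : M ≤ normalizer (C : Set G) :=
      (le_inf le_normalizer (hMF.trans (normalizer_le_normalizer_centralizer _))).trans (normalizer_inf_le _ _)
    have hCQ : Q' ⊓ C ≤ Q := by
      refine le_trans (le_pCoreIn (X := C) inf_le_right ?_ ((pCoreIn_isPGroup p N).to_le inf_le_left)) ?_
      · intro c hc
        refine mem_normalizer_fintype fun y hy => mem_inf.2 ⟨?_, mul_mem (mul_mem hc hy.2) (inv_mem hc)⟩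
        exact (mem_normalizer_iff.1 (hNQ' (hC hc)) y).1 hy.1
      · exact le_pCoreIn ((pCoreIn_le p C).trans inf_le_left)
          (hMC.trans (normalizer_le_normalizer_pCoreIn p C)) (pCoreIn_isPGroup p C)
    -- `[C, Q ⊔ Q'] ≤ Q`
    set H := M ⊓ { carrier := {m | m ∈ M ∧ ∀ c ∈ C, m * c * m⁻¹ * c⁻¹ ∈ Q}
                   one_mem' := ⟨one_mem M, fun c _ => by simp⟩
                   mul_mem' := fun {a b} ha hb => ⟨mul_mem ha.1 hb.1, fun c hc => by
                     have e : a * b * c * (a * b)⁻¹ * c⁻¹ =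
                       a * (b * c * b⁻¹ * c⁻¹) * a⁻¹ * (a * c * a⁻¹ * c⁻¹) := by group
                     rw [e]
                     exact mul_mem ((mem_normalizer_iff.1 (hMQ ha.1) _).1 (hb.2 c hc)) (ha.2 c hc)⟩
                   inv_mem' := fun {a} ha => ⟨inv_mem ha.1, fun c hc => by
                     have e : a⁻¹ * c * a⁻¹⁻¹ * c⁻¹ = a⁻¹ * (a * c * a⁻¹ * c⁻¹)⁻¹ * a⁻¹⁻¹ := by group
                     rw [e]
                     exact (mem_normalizer_iff.1 (hMQ (inv_mem ha.1)) _).1 (inv_mem (ha.2 c hc))⟩ :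
                   Subgroup G } with hH
    have hsupH : Q ⊔ Q' ≤ H := sup_le
      (fun a ha => ⟨hQM ha, hQM ha, fun c hc => by
        rw [show a * c * a⁻¹ * c⁻¹ = a * (c * a⁻¹ * c⁻¹) by group]
        exact mul_mem ha ((mem_normalizer_iff.1 (hMQ hc.1) a⁻¹).1 (inv_mem ha))⟩)
      (fun a ha => ⟨h2 ha, h2 ha, fun c hc => hCQ (mem_inf.2 ⟨by
        rw [show a * c * a⁻¹ * c⁻¹ = a * (c * a⁻¹ * c⁻¹) by group]
        exact mul_mem ha ((mem_normalizer_iff.1 (hNQ' (hC hc)) a⁻¹).1 (inv_mem ha)),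
        mul_mem ((mem_normalizer_iff.1 (hMC (h2 ha)) c).1 hc) (inv_mem hc)⟩)⟩)
    have hsupP : IsPGroup p ↥(Q ⊔ Q') :=
      (pCoreIn_isPGroup p M).to_sup_of_normal_left' (pCoreIn_isPGroup p N) (h2.trans hMQ)
    have hx' := hsupH hx
    haveI : (F.subgroupOf M).Normal := (normal_subgroupOf_iff_le_normalizer hFM).2 hMF
    have key := mem_pCore_of_quadratic (x := (⟨x, hsupM hx⟩ : ↥M)) hp2 hnsM (F.subgroupOf M)
      ((((pCoreIn_isPGroup p M).to_le hFQ)).comap_of_injective M.subtype M.subtype_injective)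
      (hsupP.comap_of_injective M.subtype M.subtype_injective) hx ((quadratic_subgroupOf hFM _).2 hq) ?_
    · exact ⟨_, key, rfl⟩
    · intro c hc
      have hcC : (c : G) ∈ C := ⟨c.2, mem_centralizer_iff.2 fun y hy =>
        congrArg Subtype.val (mem_centralizer_iff.1 hc ⟨y, hFM hy⟩ hy)⟩
      exact (mem_map_iff_mem M.subtype_injective).1 (hx'.2.2 c hcC)
  · obtain ⟨hFQ, hFn, hFab, hFq⟩ := good_top (Q ⊔ Q')
    have hle : top (Q ⊔ Q') ≤ Q :=
      abelian_le_pCoreIn hp2 hnsM hcM (hFQ.trans hsupM) hFab (le_sup_left.trans hFn)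
    exact ⟨hle, le_sup_left.trans hFn, hFab, fun x hx hq => hFq x (le_sup_left (a := Q) hx) hq⟩

theorem top_ne_bot {Q : Subgroup G} (hQ : IsPGroup p ↥Q) (hne : Q ≠ ⊥) : top Q ≠ ⊥ := by
  haveI : Nontrivial ↥Q := (Subgroup.nontrivial_iff_ne_bot _).2 hne
  haveI := hQ.center_nontrivial
  obtain ⟨⟨z, hz⟩, hz1⟩ := exists_ne (1 : center ↥Q)
  intro h0
  have hgood : Good Q (zpowers (z : G)) := by
    have hzc : ∀ y ∈ Q, y * (z : G) = z * y := fun y hy => congrArg Subtype.val (mem_center_iff.1 hz ⟨y, hy⟩)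
    have hQC : Q ≤ centralizer (zpowers (z : G) : Set G) := fun y hy => by
      rintro _ ⟨k, rfl⟩
      exact (Commute.zpow_left (show Commute (z : G) y from (hzc y hy).symm) k).eq
    exact ⟨zpowers_le.2 z.2, hQC.trans (centralizer_le_normalizer _), (zpowers_le.2 z.2).trans hQC,
      fun x hx _ => hQC hx⟩
  have : (z : G) ∈ top Q := (le_sSup hgood : zpowers (z : G) ≤ top Q) (mem_zpowers _)
  rw [h0, mem_bot] at this
  exact hz1 (Subtype.ext (Subtype.ext this))

omit [Fact p.Prime] in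
theorem sylow_two_le_pCore {M : Subgroup G}
    (hc : centralizer (Cfsg.pCore 2 ↥M : Set ↥M) ≤ Cfsg.pCore 2 ↥M)
    (hab : ∀ S : Sylow 2 ↥M, IsMulCommutative (S : Subgroup ↥M)) (S : Sylow 2 ↥M) :
    (S : Subgroup ↥M) ≤ Cfsg.pCore 2 ↥M := by
  haveI : Fact (Nat.Prime 2) := ⟨Nat.prime_two⟩
  refine le_trans (fun x hx => mem_centralizer_iff.2 fun y hy => ?_) hc
  exact congrArg Subtype.val ((hab S).is_comm.comm ⟨y, CfsgLib.PCore.pCore_le_sylow S hy⟩ ⟨x, hx⟩)

omit [Fact p.Prime] in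
theorem pCoreIn_two_le {M N : Subgroup G}
    (hc : centralizer (Cfsg.pCore 2 ↥M : Set ↥M) ≤ Cfsg.pCore 2 ↥M)
    (hab : ∀ S : Sylow 2 ↥M, IsMulCommutative (S : Subgroup ↥M)) (h : pCoreIn 2 N ≤ M) :
    pCoreIn 2 N ≤ pCoreIn 2 M := by
  obtain ⟨S, hS⟩ := (((pCoreIn_isPGroup 2 N).comap_of_injective M.subtype M.subtype_injective)).exists_le_sylow
  intro x hx
  exact ⟨⟨x, h hx⟩, sylow_two_le_pCore hc hab S (hS (show (⟨x, h hx⟩ : ↥M) ∈ (pCoreIn 2 N).comap M.subtype from hx)), rfl⟩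

end

end CfsgLib.PrimitivePairTwo
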