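import Cfsg.Agent.PLocalBasics.StableW
import Cfsg.Agent.PLocalBasics.Thompson

/-!
Facts on one stable group `G` with `C(O_p(G)) ≤ O_p(G)`, for the primitive pair theorem.
-/

set_option autoImplicit false
set_option linter.style.haveILetI false

namespace CfsgLib.PrimitivePairTwo

open Subgroup
open scoped Pointwise

universe u

variable {p : ℕ} [Fact p.Prime] {G : Type u} [Group G] [Finite G]

/-- An abelian subgroup normalised by `O_p` lies in `O_p`. -/
theorem abelian_le_pCore (hp2 : p ≠ 2)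
    (hns : ¬ Cfsg.Involves (Matrix.SpecialLinearGroup (Fin 2) (ZMod p)) G)
    (hc : centralizer (Cfsg.pCore p G : Set G) ≤ Cfsg.pCore p G) (W : Subgroup G)
    (hab : W ≤ centralizer (W : Set G)) (hn : Cfsg.pCore p G ≤ normalizer (W : Set G)) :
    W ≤ Cfsg.pCore p G :=
  CfsgLib.PLocalBasics.le_pCore_of_stable_section hc
    (CfsgLib.PLocalBasics.isActionPStable_of_not_involves hp2 hns).2.1 W
    (fun _ hx _ hy => mem_centralizer_iff.1 (hab hy) _ hx)
    fun _ hk x hx => (mem_normalizer_iff.1 (hn hk) x).1 hx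

/-- A nontrivial normal subgroup centralised by all its quadratically acting elements. -/
theorem exists_rigid (hp2 : p ≠ 2)
    (hns : ¬ Cfsg.Involves (Matrix.SpecialLinearGroup (Fin 2) (ZMod p)) G)
    (hc : centralizer (Cfsg.pCore p G : Set G) ≤ Cfsg.pCore p G) [Nontrivial G] :
    ∃ X : Subgroup G, X ≠ ⊥ ∧ X.Normal ∧ X ≤ Cfsg.pCore p G ∧ X ≤ centralizer (X : Set G) ∧
      ∀ x : G, ⁅⁅X, zpowers x⁆, zpowers x⁆ = ⊥ → x ∈ centralizer (X : Set G) := by
  set Q := Cfsg.pCore p G with hQ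
  set X : Subgroup G := ⨆ S : Sylow p G, centralizer ((S : Subgroup G) : Set G) with hX
  haveI hXn : X.Normal := by
    refine normalizer_eq_top_iff.1 (eq_top_iff.2 fun g _ => mem_normalizer_fintype fun x hx => ?_)
    have : X ≤ X.comap (MulAut.conj g).toMonoidHom := iSup_le fun S y hy => by
      refine mem_iSup_of_mem (g • S) (mem_centralizer_iff.2 fun z hz => ?_)
      change z ∈ (g • S : Sylow p G) at hz
      rw [← SetLike.mem_coe, Sylow.coe_smul] at hz
      obtain ⟨s, hs, rfl⟩ := hz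
      show g * s * g⁻¹ * (g * y * g⁻¹) = g * y * g⁻¹ * (g * s * g⁻¹)
      calc g * s * g⁻¹ * (g * y * g⁻¹) = g * (s * y) * g⁻¹ := by group
        _ = g * (y * s) * g⁻¹ := by rw [mem_centralizer_iff.1 hy s hs]
        _ = _ := by group
    exact this hx
  have hXC : X ≤ centralizer (Q : Set G) :=
    iSup_le fun S => centralizer_le (SetLike.coe_subset_coe.2 (CfsgLib.PCore.pCore_le_sylow S))
  have hXQ : X ≤ Q := hXC.trans hc
  have hXab : X ≤ centralizer (X : Set G) := hXC.trans (centralizer_le (SetLike.coe_subset_coe.2 hXQ))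
  have hXne : X ≠ ⊥ := by
    intro h0
    obtain ⟨S⟩ : Nonempty (Sylow p G) := inferInstance
    have hQne : Q ≠ ⊥ := by
      intro h
      have : (⊤ : Subgroup G) ≤ ⊥ := by
        rw [h] at hc
        refine le_trans (fun x _ => mem_centralizer_iff.2 fun y hy => ?_) hc
        rw [SetLike.mem_coe, mem_bot] at hy
        rw [hy, one_mul, mul_one]
      exact top_ne_bot (le_bot_iff.1 this)
    have hSne : (S : Subgroup G) ≠ ⊥ := fun h => hQne (le_bot_iff.1 (h ▸ CfsgLib.PCore.pCore_le_sylow S))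
    haveI : Nontrivial ↥(S : Subgroup G) := (Subgroup.nontrivial_iff_ne_bot _).2 hSne
    haveI := S.isPGroup'.center_nontrivial
    obtain ⟨⟨z, hz⟩, hz1⟩ := exists_ne (1 : center ↥(S : Subgroup G))
    have hzX : (z : G) ∈ X := mem_iSup_of_mem S (mem_centralizer_iff.2 fun s hs =>
      congrArg Subtype.val (mem_center_iff.1 hz ⟨s, hs⟩))
    rw [h0, mem_bot] at hzX
    exact hz1 (Subtype.ext (Subtype.ext hzX))
  refine ⟨X, hXne, hXn, hXQ, hXab, fun x hx => ?_⟩
  have h := CfsgLib.PLocalBasics.isPStableOn_of_not_involves hp2 hns X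
    ((CfsgLib.PCore.isPGroup_pCore p G).to_le hXQ) x hx
  rw [CfsgLib.PLocalBasics.pCore_quotient_eq_bot X (iSup_le fun S => le_iSup_of_le S
    (le_inf (le_iSup (fun T : Sylow p G => centralizer ((T : Subgroup G) : Set G)) S) le_rfl)), mem_bot] at h
  exact (QuotientGroup.eq_one_iff x).1 h

/-- A quadratically acting `p`-element centralising `C(F)` modulo `O_p` lies in `O_p`. -/
theorem mem_pCore_of_quadratic (hp2 : p ≠ 2)
    (hns : ¬ Cfsg.Involves (Matrix.SpecialLinearGroup (Fin 2) (ZMod p)) G)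
    (F : Subgroup G) [F.Normal] (hF : IsPGroup p ↥F) {P : Subgroup G} (hP : IsPGroup p ↥P) {x : G}
    (hx : x ∈ P) (hq : ⁅⁅F, zpowers x⁆, zpowers x⁆ = ⊥)
    (hxC : ∀ c ∈ centralizer (F : Set G), x * c * x⁻¹ * c⁻¹ ∈ Cfsg.pCore p G) : x ∈ Cfsg.pCore p G := by
  set C := centralizer (F : Set G) with hC
  set π := QuotientGroup.mk' (Cfsg.pCore p G) with hπ
  set Cq := C.map π with hCq
  haveI : Cq.Normal := Normal.map inferInstance π (QuotientGroup.mk'_surjective _)
  set Hq := centralizer (Cq : Set (G ⧸ Cfsg.pCore p G)) with hHq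
  set Rq := ((Cfsg.pCore p (G ⧸ C)).comap (QuotientGroup.mk' C)).map π with hRq
  haveI : Rq.Normal := Normal.map inferInstance π (QuotientGroup.mk'_surjective _)
  set Iq := Hq ⊓ Rq with hIq
  let f : ↥Iq →* (G ⧸ Cfsg.pCore p G) ⧸ Cq := (QuotientGroup.mk' Cq).comp Iq.subtype
  have hker : f.ker ≤ center ↥Iq := by
    intro y hy
    have hy' : (y : G ⧸ Cfsg.pCore p G) ∈ Cq := (QuotientGroup.eq_one_iff _).1 hy
    exact mem_center_iff.2 fun z => Subtype.ext (mem_centralizer_iff.1 z.2.1 _ hy').symm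
  have hrange : IsPGroup p ↥f.range := by
    let θ : G ⧸ C →* (G ⧸ Cfsg.pCore p G) ⧸ Cq := QuotientGroup.lift C ((QuotientGroup.mk' Cq).comp π)
      fun c hc => (QuotientGroup.eq_one_iff _).2 ⟨c, hc, rfl⟩
    refine ((CfsgLib.PCore.isPGroup_pCore p (G ⧸ C)).map θ).to_le ?_
    rintro _ ⟨⟨y, hy⟩, rfl⟩
    obtain ⟨r, hr, rfl⟩ := hy.2
    exact ⟨QuotientGroup.mk' C r, hr, rfl⟩
  haveI : Group.IsNilpotent ↥f.range := hrange.isNilpotent
  haveI hnil : Group.IsNilpotent ↥Iq :=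
    _root_.isNilpotent_of_ker_le_center f.rangeRestrict (by rwa [MonoidHom.ker_rangeRestrict])
  have hxI : π x ∈ Iq := by
    refine ⟨mem_centralizer_iff.2 ?_, mem_map_of_mem π ?_⟩
    · rintro _ ⟨c, hc, rfl⟩
      rw [← mul_inv_eq_one, ← map_mul, ← map_mul, ← map_inv, ← map_mul]
      refine (QuotientGroup.eq_one_iff _).2 ?_
      have := inv_mem (hxC c hc)
      simpa [mul_assoc] using this
    · exact CfsgLib.PLocalBasics.isPStableOn_of_not_involves hp2 hns F hF x hq
  have h1 : Cfsg.pCore p (G ⧸ Cfsg.pCore p G) = ⊥ := CfsgLib.PCore.pCore_quotient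
  have hxp : IsPGroup p ↥(zpowers (⟨π x, hxI⟩ : ↥Iq)) := by
    have h2 : IsPGroup p ↥(P.map π) := hP.map π
    have h3 : zpowers (⟨π x, hxI⟩ : ↥Iq) ≤ (P.map π).subgroupOf Iq :=
      zpowers_le.2 (mem_subgroupOf.2 (mem_map_of_mem π hx))
    exact (h2.comap_of_injective Iq.subtype Iq.subtype_injective).to_le h3
  obtain ⟨S, hS⟩ := hxp.exists_le_sylow
  have hSle : (S : Subgroup ↥Iq) ≤ Cfsg.pCore p ↥Iq :=
    CfsgLib.PCore.le_pCore (Sylow.normal_of_normalizerCondition Group.normalizerCondition_of_isNilpotent S)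
      S.isPGroup'
  have h4 : π x ∈ (Cfsg.pCore p ↥Iq).map Iq.subtype :=
    ⟨⟨π x, hxI⟩, hSle (hS (mem_zpowers _)), rfl⟩
  have h5 : (Cfsg.pCore p ↥Iq).map Iq.subtype ≤ Cfsg.pCore p (G ⧸ Cfsg.pCore p G) := by
    haveI : (Cfsg.pCore p ↥Iq).Characteristic := CfsgLib.PCore.pCore_characteristic p ↥Iq
    exact CfsgLib.PCore.le_pCore inferInstance ((CfsgLib.PCore.isPGroup_pCore p ↥Iq).map _)
  have h6 := h5 h4
  rw [h1, mem_bot] at h6
  exact (QuotientGroup.eq_one_iff x).1 h6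

end CfsgLib.PrimitivePairTwo
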